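import Mathlib

namespace Cfsg.Agent.L0

variable {X : Type*} [Group X]

theorem sh_comm (σ : MulAut X) (i j : ℕ) (a : X) : (σ ^ i) ((σ ^ j) a) = (σ ^ j) ((σ ^ i) a) := by
  rw [← MulAut.mul_apply, ← MulAut.mul_apply, ← pow_add, ← pow_add, add_comm]

theorem sh_comm1 (σ : MulAut X) (j : ℕ) (a : X) : σ ((σ ^ j) a) = (σ ^ j) (σ a) := by
  simpa using sh_comm σ 1 j a

theorem sh_fix {σ : MulAut X} {h : X} (hh : σ h = h) (i : ℕ) : (σ ^ i) h = h := by
  induction i with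
  | zero => rfl
  | succ i ih => rw [pow_succ, MulAut.mul_apply, hh, ih]

theorem sh_mem (σ : MulAut X) (g : X) :
    g ∈ (MulEquiv.toMonoidHom σ).eqLocus (MonoidHom.id X) ↔ σ g = g := Iff.rfl

theorem sh_norm (σ : MulAut X) (a : X) (d : ℕ) :
    ((List.range d).map (fun i => (σ ^ i) (a * (σ a)⁻¹))).prod = a * ((σ ^ d) a)⁻¹ := by
  induction d with
  | zero => simp
  | succ d ih =>
    rw [List.range_succ, List.map_append, List.prod_append, ih, pow_succ, MulAut.mul_apply]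
    simp

theorem sh_x {σ : MulAut X} {e : ℕ} {a : X} (hg : (σ ^ e) (a * (σ a)⁻¹) = a * (σ a)⁻¹) :
    σ (((σ ^ e) a)⁻¹ * a) = ((σ ^ e) a)⁻¹ * a := by
  rw [map_mul, map_inv] at hg
  rw [map_mul, map_inv, sh_comm1]
  have : ((σ ^ e) (σ a))⁻¹ = ((σ ^ e) a)⁻¹ * (a * (σ a)⁻¹) := by rw [← hg]; group
  rw [this]; group

theorem card_eq_mul_of_fib {A K : Type*} {Z : A → Type*} (h : ∀ a, Nonempty (Z a ≃ K)) :
    Nat.card (Σ a, Z a) = Nat.card A * Nat.card K := by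
  rw [← Nat.card_prod]
  exact Nat.card_congr ((Equiv.sigmaCongrRight fun a => (h a).some).trans (Equiv.sigmaEquivProd A K))

end Cfsg.Agent.L0
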